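import Cfsg.Agent.H21.CoTwoInv.Stab
import Cfsg.Agent.H18.CoOne.Centralizer
import Cfsg.Agent.H14.LeechStabs
import Cfsg.Agent.H58.ExtraspecialCongr
import Cfsg.Agent.H51.Basic

/-! An involution of `Co₂` with centraliser `2^{1+8}.Sp₆(2)`. -/

set_option autoImplicit false

namespace Cfsg.Agent.H21.CoTwoInv

open H14
open H18.CoOne (Mem8 ext8 emb red Ce psi e0 phi theta)

/-- The minimal vector inside the octad sublattice. -/
def uOct : V := ext8 ![4, 4, 0, 0, 0, 0, 0, 0]

theorem mem8_uOct : Mem8 uOct := H18.CoOne.mem8_ext8 (by decide)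

theorem sqNorm_uOct : sqNorm uOct = 32 := by decide +kernel

theorem red_uOct : red uOct = vNs := by decide +kernel

theorem isLeech_uOct : IsLeech uOct := mem8_uOct.1

/-- A minimal vector congruent to `uOct` modulo two is `±uOct`. -/
theorem eq_or_eq_neg {x : V} (hx : Mem8 x) (hn : sqNorm x = 32) (hr : red x = red uOct) :
    x = uOct ∨ x = -uOct := by
  obtain ⟨z, hz, e⟩ := H18.CoOne.exists_two_of_red_eq hx mem8_uOct hr
  have hz' : Mem8 (z + uOct) := hz.add mem8_uOct
  have e' : x + uOct = 2 • (z + uOct) := by rw [nsmul_add, ← e]; abel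
  have k : ∀ w : V, sqNorm (2 • w) = 4 * sqNorm w := fun w => by
    unfold sqNorm; rw [Finset.mul_sum]; exact Finset.sum_congr rfl fun i _ => by simp; ring
  have hpar : sqNorm (x - uOct) + sqNorm (x + uOct) = 2 * sqNorm x + 2 * sqNorm uOct := by
    unfold sqNorm
    simp only [Finset.mul_sum, ← Finset.sum_add_distrib, Pi.sub_apply, Pi.add_apply]
    exact Finset.sum_congr rfl fun i _ => by ring
  rw [e, e', k, k, hn, sqNorm_uOct] at hpar
  by_cases h0 : z = 0
  · exact Or.inl (sub_eq_zero.1 (by rw [e, h0, nsmul_zero]))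
  by_cases h1 : z + uOct = 0
  · exact Or.inr (eq_neg_of_add_eq_zero_left (by rw [e', h1, nsmul_zero]))
  have := hz.1.min_sqNorm h0
  have := hz'.1.min_sqNorm h1
  omega

theorem act_uOct_cases {g : Ce}
    (h : (psi g : H18.CoOne.F8 ≃ₗ[ZMod 2] H18.CoOne.F8) vNs = vNs) :
    act g.1 uOct = uOct ∨ act g.1 uOct = -uOct := by
  refine eq_or_eq_neg (mem8_uOct.act g.2)
    ((sqNorm_act _ isLeech_uOct).trans sqNorm_uOct) ?_
  rw [H18.CoOne.red_act g.2 mem8_uOct, red_uOct]
  exact h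

/-- Adjust an element by `negOne` to fix the vector. -/
theorem exists_adjust {g : Ce}
    (h : (psi g : H18.CoOne.F8 ≃ₗ[ZMod 2] H18.CoOne.F8) vNs = vNs) :
    ∃ k ∈ psi.ker, k ∈ theta.ker ∧ act ((g * k : Ce) : Co0) uOct = uOct := by
  rcases act_uOct_cases h with e | e
  · exact ⟨1, one_mem _, one_mem _, by rw [mul_one]; exact e⟩
  · have hth : (⟨negOne, H18.CoOne.negOne_mem_Ce⟩ : Ce) ∈ theta.ker :=
      MonoidHom.mem_ker.2 (Subtype.ext H18.CoOne.proj_negOne)
    refine ⟨_, H18.CoOne.ker_theta_le hth, hth, ?_⟩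
    show act (g.1 * negOne) uOct = uOct
    rw [mul_act, act_negOne isLeech_uOct, act_neg _ isLeech_uOct, e, neg_neg]

/-- The stabiliser of the vector in the centraliser. -/
def Cv : Subgroup Ce := (fixVec uOct).subgroupOf Ce

theorem mem_Cv {g : Ce} : g ∈ Cv ↔ act g.1 uOct = uOct := Iff.rfl

theorem psi_mem_omStab (g : Cv) : psi g.1 ∈ omStab := by
  refine ⟨by rw [← H18.CoOne.range_psi]; exact ⟨g.1, rfl⟩, ?_⟩
  rw [H18.CoOne.psi_apply, ← red_uOct, ← H18.CoOne.red_act g.1.2 mem8_uOct, mem_Cv.1 g.2]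

/-- The map to the stabiliser in the orthogonal group. -/
noncomputable def rhoV : Cv →* omStab := (psi.comp Cv.subtype).codRestrict _ psi_mem_omStab

theorem rhoV_surjective : Function.Surjective rhoV := by
  rintro ⟨s, hs⟩
  obtain ⟨g, rfl⟩ : s ∈ psi.range := by rw [H18.CoOne.range_psi]; exact hs.1
  obtain ⟨k, hk, -, e⟩ := exists_adjust hs.2
  refine ⟨⟨g * k, e⟩, Subtype.ext ?_⟩
  show psi (g * k) = psi g
  rw [map_mul, MonoidHom.mem_ker.1 hk, mul_one]

/-- The map to the symplectic group. -/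
noncomputable def sixRep : Cv →* Matrix.symplecticGroup (Fin 3) (ZMod 2) := sixHom.comp rhoV

theorem sixRep_surjective : Function.Surjective sixRep :=
  sixHom_bijective.2.comp rhoV_surjective

theorem mem_ker_sixRep {g : Cv} : g ∈ sixRep.ker ↔ g.1 ∈ psi.ker := by
  rw [MonoidHom.mem_ker, MonoidHom.mem_ker, sixRep, MonoidHom.comp_apply,
    map_eq_one_iff _ sixHom_injective]
  exact Subtype.ext_iff

/-- The kernel is the kernel in the first Conway group. -/
noncomputable def kerMap : sixRep.ker →* phi.ker where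
  toFun g := ⟨theta g.1.1, H18.CoOne.theta_mem_ker.2 (mem_ker_sixRep.1 g.2)⟩
  map_one' := Subtype.ext (map_one theta)
  map_mul' g h := Subtype.ext (map_mul theta g.1.1 h.1.1)

theorem kerMap_bijective : Function.Bijective kerMap := by
  constructor
  · rw [← MonoidHom.ker_eq_bot_iff, eq_bot_iff]
    intro g hg
    rw [Subgroup.mem_bot]
    have h1 : H18.CoOne.proj g.1.1.1 = 1 :=
      congrArg (fun k : phi.ker => k.1.1) (MonoidHom.mem_ker.1 hg)
    rcases H18.CoOne.proj_eq_one.1 h1 with e | e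
    · exact Subtype.ext (Subtype.ext (Subtype.ext e))
    · exfalso
      have := mem_Cv.1 g.1.2
      rw [e, act_negOne isLeech_uOct] at this
      revert this
      decide +kernel
  · rintro ⟨x, hx⟩
    obtain ⟨g, rfl⟩ := H18.CoOne.theta_surjective x
    have hg := H18.CoOne.theta_mem_ker.1 hx
    obtain ⟨k, hk, hk', e⟩ := exists_adjust (g := g) (by rw [MonoidHom.mem_ker.1 hg]; rfl)
    refine ⟨⟨⟨g * k, e⟩, mem_ker_sixRep.2 (mul_mem hg hk)⟩, Subtype.ext ?_⟩
    show theta (g * k) = theta g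
    rw [map_mul, MonoidHom.mem_ker.1 hk', mul_one]

/-- The kernel as the kernel in the first Conway group. -/
noncomputable def kerEquiv : sixRep.ker ≃* phi.ker := MulEquiv.ofBijective kerMap kerMap_bijective

theorem extraspecial_ker : Cfsg.IsExtraspecial 2 sixRep.ker :=
  H58.isExtraspecial_congr kerEquiv.symm H18.CoOne.isExtraspecial_ker

theorem card_ker_sixRep : Nat.card sixRep.ker = 2 ^ 9 :=
  (Nat.card_congr kerEquiv.toEquiv).trans H18.CoOne.card_phi_ker

theorem finite_Cv : Finite Cv := by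
  haveI : Finite (Matrix.symplecticGroup (Fin 3) (ZMod 2)) :=
    Nat.finite_of_card_ne_zero (by rw [card_sp_six]; norm_num)
  haveI : Finite sixRep.ker := Nat.finite_of_card_ne_zero (by rw [card_ker_sixRep]; norm_num)
  exact Nat.finite_of_card_ne_zero (by
    rw [← sixRep.ker.card_mul_index, Subgroup.index_ker, card_ker_sixRep,
      MonoidHom.range_eq_top.2 sixRep_surjective, Subgroup.card_top, card_sp_six]
    norm_num)

theorem pCore_Cv : Cfsg.pCore 2 Cv = sixRep.ker := by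
  haveI := finite_Cv
  haveI := simple_sp_six
  refine le_antisymm ?_ (le_sSup ⟨inferInstance, IsPGroup.of_card card_ker_sixRep⟩)
  intro x hx
  have hn : (Cfsg.pCore 2 Cv).Normal := Subgroup.sSup_normal _ fun N hN => hN.1
  rcases IsSimpleGroup.eq_bot_or_eq_top_of_normal _ (hn.map sixRep sixRep_surjective) with h | h
  · exact MonoidHom.mem_ker.2 (Subgroup.mem_bot.1 (h ▸ Subgroup.mem_map_of_mem sixRep hx))
  · exfalso
    have hp : IsPGroup 2 ((Cfsg.pCore 2 Cv).map sixRep) :=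
      (H51.pCore_isPGroup 2 Cv).map _
    haveI : Finite (Matrix.symplecticGroup (Fin 3) (ZMod 2)) :=
      Nat.finite_of_card_ne_zero (by rw [card_sp_six]; norm_num)
    haveI : Fact (Nat.Prime 2) := ⟨Nat.prime_two⟩
    obtain ⟨n, hn⟩ := IsPGroup.iff_card.1 hp
    rw [h, Subgroup.card_top, card_sp_six] at hn
    have h3 : 3 ∣ 2 ^ n := ⟨483840, by rw [← hn]⟩
    exact absurd (Nat.Prime.dvd_of_dvd_pow Nat.prime_three h3) (by norm_num)

theorem main_of_equiv {G : Type} [Group G] (e : Cv ≃* G) :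
    Cfsg.IsExtraspecial 2 (Cfsg.pCore 2 G) ∧ Nat.card (Cfsg.pCore 2 G) = 2 ^ 9 ∧
      Nonempty (G ⧸ Cfsg.pCore 2 G ≃* Matrix.symplecticGroup (Fin 3) (ZMod 2)) := by
  have hmap : sixRep.ker.map e.toMonoidHom = Cfsg.pCore 2 G := by
    rw [← pCore_Cv]; exact H51.pCore_map_equiv 2 e
  let ek : sixRep.ker ≃* Cfsg.pCore 2 G :=
    (sixRep.ker.equivMapOfInjective e.toMonoidHom e.injective).trans (MulEquiv.subgroupCongr hmap)
  refine ⟨H58.isExtraspecial_congr ek extraspecial_ker, ?_, ⟨?_⟩⟩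
  · rw [← Nat.card_congr ek.toEquiv, card_ker_sixRep]
  · exact (QuotientGroup.congr sixRep.ker (Cfsg.pCore 2 G) e hmap).symm.trans
      (QuotientGroup.quotientKerEquivOfSurjective sixRep sixRep_surjective)

/-- A lattice automorphism moving the vector to the standard one. -/
theorem exists_mover : ∃ h : Co0, act h uOct = Cfsg.Spor.vecU := by
  obtain ⟨g, -, e⟩ := exists_act_min isLeech_uOct sqNorm_uOct
    (mem_leechLattice_iff.1 Cfsg.Spor.leechU.2) (w := Cfsg.Spor.vecU) (by decide +kernel)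
  exact ⟨g, e⟩

theorem mem_Co2_iff {x : Co0} : (x : Equiv.Perm leechLattice) ∈ Cfsg.Spor.Co2 ↔
    act x Cfsg.Spor.vecU = Cfsg.Spor.vecU := by
  constructor
  · intro hx
    exact act_of_smul (MulAction.mem_stabilizer_iff.1 hx.2 : x • Cfsg.Spor.leechU = _)
  · intro hx
    refine ⟨x.2, MulAction.mem_stabilizer_iff.2 ?_⟩
    exact smul_eq_of_act (g := x) (v := Cfsg.Spor.leechU) (w := Cfsg.Spor.leechU) hx

theorem exists_involution : ∃ t : ↥Cfsg.Spor.Co2, orderOf t = 2 ∧
    Nonempty (Cv ≃* Subgroup.centralizer ({t} : Set ↥Cfsg.Spor.Co2)) := by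
  obtain ⟨h, hh⟩ := exists_mover
  have hhi : act h⁻¹ Cfsg.Spor.vecU = uOct := by rw [← hh, inv_act_act]
  set t0 : Co0 := h * (negOne * e0) * h⁻¹ with ht0
  have hzc : ∀ g : Co0, g * negOne = negOne * g := fun g =>
    Subgroup.mem_center_iff.1 negOne_mem_center g
  have ht : act t0 Cfsg.Spor.vecU = Cfsg.Spor.vecU := by
    rw [ht0, mul_act, mul_act, hhi, mul_act, H18.CoOne.act_e0_mem8 mem8_uOct,
      act_negOne isLeech_uOct.neg, neg_neg, hh]
  let t : ↥Cfsg.Spor.Co2 := ⟨t0.1, mem_Co2_iff.2 ht⟩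
  refine ⟨t, ?_, ⟨?_⟩⟩
  · refine orderOf_eq_prime ?_ fun h1 => ?_
    · have hn : negOne * negOne = 1 := act_eq_of_forall fun x hx => by
        rw [mul_act, act_negOne hx, act_negOne hx.neg, neg_neg, one_act]
      have : t0 * t0 = 1 := by
        rw [ht0, show h * (negOne * e0) * h⁻¹ * (h * (negOne * e0) * h⁻¹) =
          h * ((negOne * (e0 * negOne)) * e0) * h⁻¹ by group, hzc e0, ← mul_assoc negOne, hn,
          one_mul, H18.CoOne.e0_mul_self, mul_one, mul_inv_cancel]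
      rw [pow_two]
      exact Subtype.ext (congrArg (fun k : Co0 => k.1) this)
    · have h2 : t0 = 1 := Subtype.ext (congrArg (fun k : Cfsg.Spor.Co2 => k.1) h1)
      rw [ht0, conj_eq_one_iff, mul_eq_one_iff_eq_inv'] at h2
      exact H18.CoOne.e0_not_center (h2 ▸ inv_mem negOne_mem_center)
  · have hfix : ∀ g : Cv, act (h * g.1.1 * h⁻¹) Cfsg.Spor.vecU = Cfsg.Spor.vecU := fun g => by
      rw [mul_act, mul_act, hhi, mem_Cv.1 g.2, hh]
    have hcomm : ∀ g : Cv, h * g.1.1 * h⁻¹ * t0 = t0 * (h * g.1.1 * h⁻¹) := fun g => by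
      have hc := H18.CoOne.comm_of_mem g.1.2
      rw [ht0]
      calc h * g.1.1 * h⁻¹ * (h * (negOne * e0) * h⁻¹) = h * ((g.1.1 * negOne) * e0) * h⁻¹ := by group
        _ = h * (negOne * (g.1.1 * e0)) * h⁻¹ := by rw [hzc]; group
        _ = _ := by rw [hc]; group
    let f : Cv →* Subgroup.centralizer ({t} : Set ↥Cfsg.Spor.Co2) :=
      { toFun := fun g => ⟨⟨(h * g.1.1 * h⁻¹).1, mem_Co2_iff.2 (hfix g)⟩,
          Subgroup.mem_centralizer_singleton_iff.2
            (Subtype.ext (congrArg (fun k : Co0 => k.1) (hcomm g)))⟩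
        map_one' := Subtype.ext (Subtype.ext (congrArg (fun k : Co0 => k.1)
          (show h * ((1 : Cv).1.1) * h⁻¹ = 1 by simp)))
        map_mul' := fun a b => Subtype.ext (Subtype.ext (congrArg (fun k : Co0 => k.1)
          (show h * (a.1.1 * b.1.1) * h⁻¹ = (h * a.1.1 * h⁻¹) * (h * b.1.1 * h⁻¹) by group))) }
    refine MulEquiv.ofBijective f ⟨fun a b e => ?_, fun x => ?_⟩
    · have e' : h * a.1.1 * h⁻¹ = h * b.1.1 * h⁻¹ :=
        Subtype.ext (congrArg (fun k => k.1.1) e)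
      exact Subtype.ext (Subtype.ext (mul_left_cancel (mul_right_cancel e')))
    · set y : Co0 := ⟨x.1.1, x.1.2.1⟩ with hy
      have hyfix : act y Cfsg.Spor.vecU = Cfsg.Spor.vecU := mem_Co2_iff.1 x.1.2
      have hyc : y * t0 = t0 * y := Subtype.ext
        (congrArg (fun k : ↥Cfsg.Spor.Co2 => k.1) (Subgroup.mem_centralizer_singleton_iff.1 x.2))
      have hg : h⁻¹ * y * h ∈ Ce := by
        refine Subgroup.mem_centralizer_singleton_iff.2 (mul_left_cancel (a := negOne) ?_)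
        rw [← mul_assoc negOne, ← hzc (h⁻¹ * y * h), mul_assoc, ← mul_assoc negOne]
        calc h⁻¹ * y * h * (negOne * e0) = h⁻¹ * (y * t0) * h := by rw [ht0]; group
          _ = _ := by rw [hyc, ht0]; group
      refine ⟨⟨⟨_, hg⟩, show act (h⁻¹ * y * h) uOct = uOct by
        rw [mul_act, mul_act, hh, hyfix, hhi]⟩, Subtype.ext (Subtype.ext ?_)⟩
      exact congrArg (fun k : Co0 => k.1) (show h * (h⁻¹ * y * h) * h⁻¹ = y by group)

theorem co2_involution_centralizer : ∃ t : ↥Cfsg.Spor.Co2, orderOf t = 2 ∧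
    Cfsg.IsExtraspecial 2 (Cfsg.pCore 2 ↥(Subgroup.centralizer ({t} : Set ↥Cfsg.Spor.Co2))) ∧
    Nat.card (Cfsg.pCore 2 ↥(Subgroup.centralizer ({t} : Set ↥Cfsg.Spor.Co2))) = 2 ^ 9 ∧
    Nonempty (↥(Subgroup.centralizer ({t} : Set ↥Cfsg.Spor.Co2)) ⧸
      Cfsg.pCore 2 ↥(Subgroup.centralizer ({t} : Set ↥Cfsg.Spor.Co2)) ≃*
        Matrix.symplecticGroup (Fin 3) (ZMod 2)) := by
  obtain ⟨t, ht, ⟨e⟩⟩ := exists_involution
  exact ⟨t, ht, main_of_equiv e⟩

end Cfsg.Agent.H21.CoTwoInv
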