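import Cfsg.Agent.H18.CoOne.Action
import Cfsg.Agent.H2.Card
import Cfsg.Agent.H2.Perfect
import Cfsg.Agent.H2.Center
import Cfsg.Agent.H2.Simple

/-! The stabiliser of a non-singular vector in `Ω₈⁺(2)` is the symplectic group of degree six. -/

set_option autoImplicit false

namespace Cfsg.Agent.H21.CoTwoInv

open Matrix
open H18.CoOne (F8 Q8)
open QuadraticMap (polar)

/-- Vectors of degree six. -/
abbrev F6 : Type := Fin 3 ⊕ Fin 3 → ZMod 2

/-- The non-singular vector. -/
def vNs : F8 := Sum.elim ![1, 0, 0, 0] ![1, 0, 1, 1]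

/-- Representatives of a symplectic basis of `v^⊥/v`. -/
def pB : Fin 3 ⊕ Fin 3 → F8 :=
  Sum.elim
    ![Sum.elim ![0, 0, 0, 0] ![0, 0, 0, 1], Sum.elim ![0, 0, 0, 0] ![0, 0, 1, 0],
      Sum.elim ![0, 0, 0, 0] ![0, 1, 0, 0]]
    ![Sum.elim ![0, 0, 0, 1] ![1, 0, 0, 0], Sum.elim ![0, 0, 1, 0] ![1, 0, 0, 0],
      Sum.elim ![0, 1, 0, 0] ![0, 0, 0, 0]]

/-- The polar form, as a plain function. -/
def pol (x y : F8) : ZMod 2 := polar (Cfsg.quadFormPlus 4 (ZMod 2)) x y

theorem pol_eq (x y : F8) : pol x y = polar Q8 x y := by rw [pol, H5.coe_qPlus]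

/-- The lift of a vector of degree six. -/
def liftW (w : F6) : F8 := fun j => ∑ k, w k * pB k j

/-- The coordinates of a vector orthogonal to `vNs`. -/
def crd (x : F8) : F6 := fun k => pol x (pB k.swap)

theorem q_vNs : Cfsg.quadFormPlus 4 (ZMod 2) vNs = 1 := by decide +kernel

theorem liftW_perp : ∀ w : F6, pol (liftW w) vNs = 0 := by decide +kernel

theorem crd_liftW : ∀ w : F6, crd (liftW w) = w := by decide +kernel

theorem perp_cases : ∀ x : F8, pol x vNs = 0 →
    x = liftW (crd x) ∨ x = liftW (crd x) + vNs := by decide +kernel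

theorem crd_vNs : crd vNs = 0 := by decide +kernel

theorem pol_liftW : ∀ w w' : F6, pol (liftW w) (liftW w') = Cfsg.sympForm 3 (ZMod 2) w w' := by
  decide +kernel

theorem radical_cases : ∀ d : F8, (∀ w : F6, pol (liftW w) d = 0) → pol vNs d = 0 →
    d = 0 ∨ d = vNs := by decide +kernel

theorem card_nonsingular :
    (Finset.univ.filter fun x : F8 => Cfsg.quadFormPlus 4 (ZMod 2) x = 1).card = 120 := by
  decide +kernel

theorem crd_add (x y : F8) : crd (x + y) = crd x + crd y := by
  funext k; simp only [crd, pol_eq, Pi.add_apply, QuadraticMap.polar_add_left]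

theorem crd_smul (a : ZMod 2) (x : F8) : crd (a • x) = a • crd x := by
  funext k; simp only [crd, pol_eq, Pi.smul_apply, QuadraticMap.polar_smul_left]

theorem liftW_add (w w' : F6) : liftW (w + w') = liftW w + liftW w' := by
  funext j; simp [liftW, add_mul, Finset.sum_add_distrib]

theorem liftW_smul (a : ZMod 2) (w : F6) : liftW (a • w) = a • liftW w := by
  funext j; simp only [liftW, Pi.smul_apply, smul_eq_mul, Finset.mul_sum, mul_assoc]

/-- Linear maps of `F6` induced by an isometry. -/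
def indLin (g : H5.orth Q8) : F6 →ₗ[ZMod 2] F6 where
  toFun w := crd ((g : F8 ≃ₗ[ZMod 2] F8) (liftW w))
  map_add' w w' := by simp [liftW_add, crd_add]
  map_smul' a w := by simp [liftW_smul, crd_smul]

/-- The stabiliser of the vector in the derived subgroup. -/
def omStab : Subgroup (H5.orth Q8) where
  carrier := {g | g ∈ commutator (H5.orth Q8) ∧ (g : F8 ≃ₗ[ZMod 2] F8) vNs = vNs}
  one_mem' := ⟨one_mem _, rfl⟩
  mul_mem' := fun {g h} hg hh => ⟨mul_mem hg.1 hh.1, by rw [H5.orth_mul_apply, hh.2, hg.2]⟩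
  inv_mem' := fun {g} hg => ⟨inv_mem hg.1, by
    conv_lhs => rw [← hg.2]
    exact H5.orth_inv_apply_apply g vNs⟩

theorem apply_perp {g : H5.orth Q8} (hg : g ∈ omStab) {x : F8} (hx : pol x vNs = 0) :
    pol ((g : F8 ≃ₗ[ZMod 2] F8) x) vNs = 0 := by
  rw [pol_eq] at hx ⊢
  conv_lhs => rw [← hg.2]
  rw [H5.orth_polar, hx]

theorem indLin_crd {g : H5.orth Q8} (hg : g ∈ omStab) {x : F8} (hx : pol x vNs = 0) :
    crd ((g : F8 ≃ₗ[ZMod 2] F8) x) = indLin g (crd x) := by
  rcases perp_cases x hx with e | e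
  · conv_lhs => rw [e]
    rfl
  · conv_lhs => rw [e]
    rw [map_add, hg.2, crd_add, crd_vNs, add_zero]
    rfl

theorem indLin_mul {g h : H5.orth Q8} (hg : g ∈ omStab) (hh : h ∈ omStab) :
    indLin (g * h) = indLin g ∘ₗ indLin h := by
  refine LinearMap.ext fun w => ?_
  show crd (((g * h : H5.orth Q8) : F8 ≃ₗ[ZMod 2] F8) (liftW w)) = _
  rw [H5.orth_mul_apply, indLin_crd hg (apply_perp hh (liftW_perp w))]
  rfl

theorem pol_crd {x y : F8} (hx : pol x vNs = 0) (hy : pol y vNs = 0) :
    Cfsg.sympForm 3 (ZMod 2) (crd x) (crd y) = pol x y := by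
  have e := pol_liftW (crd x) (crd y)
  rw [← e]
  have hv : pol vNs vNs = 0 := by decide +kernel
  have h1 := liftW_perp (crd x)
  have h2 := liftW_perp (crd y)
  simp only [pol_eq] at hv h1 h2 hx hy ⊢
  rcases perp_cases x (by rw [pol_eq]; exact hx) with a | a <;>
    rcases perp_cases y (by rw [pol_eq]; exact hy) with b | b <;>
    conv_rhs => rw [a, b]
  · simp [QuadraticMap.polar_add_left, QuadraticMap.polar_add_right, h1, QuadraticMap.polar_comm (⇑Q8) vNs, h2, hv]
  · simp [QuadraticMap.polar_add_left, QuadraticMap.polar_add_right, h1, QuadraticMap.polar_comm (⇑Q8) vNs, h2, hv]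
  · simp [QuadraticMap.polar_add_left, QuadraticMap.polar_add_right, h1, QuadraticMap.polar_comm (⇑Q8) vNs, h2, hv]

theorem indMat_mem {g : H5.orth Q8} (hg : g ∈ omStab) :
    LinearMap.toMatrix' (indLin g) ∈ Matrix.symplecticGroup (Fin 3) (ZMod 2) := by
  rw [H2.mem_symplecticGroup_iff]
  intro u w
  rw [LinearMap.toMatrix'_mulVec, LinearMap.toMatrix'_mulVec]
  show Cfsg.sympForm 3 (ZMod 2) (crd _) (crd _) = _
  rw [pol_crd (apply_perp hg (liftW_perp u)) (apply_perp hg (liftW_perp w)), pol_eq,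
    H5.orth_polar, ← pol_eq, pol_liftW]

theorem indLin_one : indLin 1 = LinearMap.id := by
  exact LinearMap.ext crd_liftW

/-- The action on `v^⊥/v`. -/
noncomputable def sixHom : omStab →* Matrix.symplecticGroup (Fin 3) (ZMod 2) where
  toFun g := ⟨LinearMap.toMatrix' (indLin g.1), indMat_mem g.2⟩
  map_one' := Subtype.ext (by
    show LinearMap.toMatrix' (indLin 1) = 1
    rw [indLin_one, LinearMap.toMatrix'_id])
  map_mul' g h := Subtype.ext (by
    show LinearMap.toMatrix' (indLin (g.1 * h.1)) = _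
    rw [indLin_mul g.2 h.2, LinearMap.toMatrix'_comp]
    rfl)

theorem sixHom_injective : Function.Injective sixHom := by
  rw [← MonoidHom.ker_eq_bot_iff, eq_bot_iff]
  rintro ⟨g, hg⟩ hker
  rw [Subgroup.mem_bot]
  have hind : indLin g = LinearMap.id := by
    have := congrArg Subtype.val (MonoidHom.mem_ker.1 hker)
    exact LinearMap.toMatrix'.injective (this.trans LinearMap.toMatrix'_id.symm)
  have hfix : ∀ w, (g : F8 ≃ₗ[ZMod 2] F8) (liftW w) = liftW w := by
    intro w
    have hc : crd ((g : F8 ≃ₗ[ZMod 2] F8) (liftW w)) = w := by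
      show indLin g w = w
      rw [hind]; rfl
    rcases perp_cases _ (apply_perp hg (liftW_perp w)) with e | e <;> rw [hc] at e
    · exact e
    · exfalso
      have h := H5.orth_map g (liftW w)
      rw [e] at h
      have hp : polar Q8 (liftW w) vNs = 0 := (pol_eq _ _).symm.trans (liftW_perp w)
      have hv : Q8 vNs = 1 := by rw [H5.coe_qPlus]; exact q_vNs
      simp only [polar, hv] at hp
      rw [eq_comm, ← sub_eq_zero] at h
      have : (1 : ZMod 2) = 0 := by linear_combination -hp - h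
      exact one_ne_zero this
  -- an isometry fixing `v^⊥` is a power of the reflection
  have hd : ∀ x : F8, (g : F8 ≃ₗ[ZMod 2] F8) x = x ∨ (g : F8 ≃ₗ[ZMod 2] F8) x = x + vNs := by
    intro x
    rcases radical_cases ((g : F8 ≃ₗ[ZMod 2] F8) x - x) (fun w => by
        rw [pol_eq, QuadraticMap.polar_sub_right]
        conv_lhs => arg 1; rw [← hfix w]
        rw [H5.orth_polar, sub_self])
      (by
        rw [pol_eq, QuadraticMap.polar_sub_right]
        conv_lhs => arg 1; rw [← hg.2]
        rw [H5.orth_polar, sub_self]) with e | e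
    · exact Or.inl (sub_eq_zero.1 e)
    · exact Or.inr (by rw [← e]; abel)
  have hval : ∀ x : F8, (g : F8 ≃ₗ[ZMod 2] F8) x = x + vNs → polar Q8 vNs x = 1 := by
    intro x e
    have h := H5.orth_map g x
    rw [e] at h
    have hv : Q8 vNs = 1 := by rw [H5.coe_qPlus]; exact q_vNs
    rw [polar, add_comm vNs x, hv]
    linear_combination h - (CharTwo.two_eq_zero (R := ZMod 2))
  by_cases hid : ∀ x, (g : F8 ≃ₗ[ZMod 2] F8) x = x
  · exact Subtype.ext (H5.orth_ext hid)
  push Not at hid
  obtain ⟨a, ha⟩ := hid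
  have ha1 := hval a ((hd a).resolve_left ha)
  have hg' : g = H5.refl Q8 vNs := by
    refine H5.orth_ext fun x => ?_
    have hv : Q8 vNs = 1 := by rw [H5.coe_qPlus]; exact q_vNs
    rw [H5.refl_apply, hv, inv_one, one_mul]
    have hz : ∀ z : ZMod 2, z = 0 ∨ z = 1 := by decide
    rcases hz (polar Q8 vNs x) with h0 | h1
    · rw [h0, zero_smul, sub_zero]
      refine (hd x).resolve_right fun e => ?_
      rw [hval x e] at h0
      exact one_ne_zero h0
    · rw [h1, one_smul]
      have hneg : ∀ y : F8, x - y = x + y := fun y => by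
        funext j; simp [sub_eq_add_neg, ZMod.neg_eq_self_mod_two]
      rw [hneg]
      refine (hd x).resolve_left fun e => ha ?_
      have h2 : polar Q8 vNs (x + a) = 0 := by
        rw [QuadraticMap.polar_add_right, h1, ha1]; decide
      have h3 : (g : F8 ≃ₗ[ZMod 2] F8) (x + a) = x + a :=
        (hd (x + a)).resolve_right fun e' => by
          rw [hval _ e'] at h2; exact one_ne_zero h2
      rw [map_add, e] at h3
      exact add_left_cancel h3
  exfalso
  have hmem := hg.1
  rw [hg'] at hmem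
  have := (H5.list_prod_mem_commutator_iff (H5.qPlus_nondegenerate 4) (Or.inr (by simp))
    (vs := [vNs]) (by simp [H5.coe_qPlus, q_vNs])).1 (by simpa using hmem)
  simp at this

theorem card_sp_six : Nat.card (Matrix.symplecticGroup (Fin 3) (ZMod 2)) = 1451520 := by
  rw [H2.card_sp]
  simp [Nat.card_eq_fintype_card, Finset.prod_range_succ]

theorem card_omStab : 1451520 ≤ Nat.card omStab := by
  set Ω := commutator (H5.orth Q8)
  let f : ↥Ω ⧸ omStab.subgroupOf Ω → {x : F8 // Cfsg.quadFormPlus 4 (ZMod 2) x = 1} :=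
    Quotient.lift (fun g => ⟨((g : H5.orth Q8) : F8 ≃ₗ[ZMod 2] F8) vNs, by
      rw [← H5.coe_qPlus, H5.orth_map, H5.coe_qPlus, q_vNs]⟩) fun a b h => by
        replace h : a⁻¹ * b ∈ omStab.subgroupOf Ω := QuotientGroup.leftRel_apply.1 h
        rw [Subgroup.mem_subgroupOf] at h
        apply Subtype.ext
        show ((a : H5.orth Q8) : F8 ≃ₗ[ZMod 2] F8) vNs = ((b : H5.orth Q8) : F8 ≃ₗ[ZMod 2] F8) vNs
        conv_lhs => rw [← h.2]
        rw [← H5.orth_mul_apply]
        simp
  have hf : Function.Injective f := by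
    rintro ⟨a⟩ ⟨b⟩ h
    refine Quotient.sound ?_
    show QuotientGroup.leftRel _ a b
    rw [QuotientGroup.leftRel_apply, Subgroup.mem_subgroupOf]
    refine ⟨(a⁻¹ * b).2, ?_⟩
    have h' : ((a : H5.orth Q8) : F8 ≃ₗ[ZMod 2] F8) vNs =
        ((b : H5.orth Q8) : F8 ≃ₗ[ZMod 2] F8) vNs := congrArg Subtype.val h
    rw [Subgroup.coe_mul, Subgroup.coe_inv, H5.orth_mul_apply, ← h', H5.orth_inv_apply_apply]
  have hle := Nat.card_le_card_of_injective f hf
  rw [Nat.card_eq_fintype_card (α := {x : F8 // _}), Fintype.card_subtype, card_nonsingular] at hle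
  have hmul := (omStab.subgroupOf Ω).card_mul_index
  rw [H18.CoOne.card_Omega, Nat.card_congr (Subgroup.subgroupOfEquivOfLe
    (show omStab ≤ Ω from fun g hg => hg.1)).toEquiv] at hmul
  rw [← Subgroup.index] at hle
  have := Nat.mul_le_mul_left (Nat.card omStab) hle
  omega

theorem sixHom_bijective : Function.Bijective sixHom := by
  haveI : Finite (Matrix.symplecticGroup (Fin 3) (ZMod 2)) :=
    Nat.finite_of_card_ne_zero (by rw [card_sp_six]; norm_num)
  exact sixHom_injective.bijective_of_nat_card_le (by rw [card_sp_six]; exact card_omStab)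

theorem simple_sp_six : IsSimpleGroup (Matrix.symplecticGroup (Fin 3) (ZMod 2)) := by
  haveI := H2.psp_isSimpleGroup_of (F := ZMod 2) (m := 3) (by norm_num)
    (H2.commutator_eq_top_of_three_le le_rfl)
  have hc : Subgroup.center (Matrix.symplecticGroup (Fin 3) (ZMod 2)) = ⊥ := by
    rw [Subgroup.eq_bot_iff_card, H2.card_center_sp (by norm_num), Nat.card_zmod]; rfl
  exact (((QuotientGroup.quotientMulEquivOfEq hc).trans
    QuotientGroup.quotientBot).isSimpleGroup_congr).1 this

end Cfsg.Agent.H21.CoTwoInv
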